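import Cfsg.Agent.H704.S8.Defs
import Cfsg.Agent.H511.Ore.Deg
import Cfsg.Agent.H424.DegTools
import Cfsg.Agent.H133.Ore.Tools
import Cfsg.Agent.H495.Cod.Basic

/-!
# S4908: admissible degrees of a simple group `X` and of `Aut X` (helper131)

* `deg_cases` : the members of `D`, `Deg c X D`, are degrees of `X` or twice degrees of `X`;
* `AD` : the data of `X` (order, least degree, columns of the primes `p ∥ |X|`); `AD.OK a X` : they are right;
* `AD.OK.adm` : the degrees of `X` satisfy the boolean test `a.adm`;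
* `AD.OK.inD` : the members of `D` satisfy `a.inD c`;
* `AD.OK.kill` : an almost simple group `A` with socle `S`, `charDegrees A ⊆ D`, `|A : S| ∣ o`, `e` a degree of `S`:
  impossible if `a.kill c o e = true`;
* `AD.OK.mem_list`, `AD.OK.mem_list2` : explicit supersets of the degrees of `X` and of `D` (kernel check);
* `AD.OK.le_of_mem` : the nontrivial members of `D` are at least `a.m`.
-/

set_option autoImplicit false

open Cfsg Subgroup

namespace Cfsg.Agent.H131.S8

open Cfsg.Agent.H653.Sieve Cfsg.Agent.H651.Two Cfsg.Agent.Characters.Core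
open Cfsg.Agent.H511.Ore (MinDeg NoDeg)
open Cfsg.Agent.H704.S8 (Deg)
open Cfsg.Agent.H691.AN (AlmostSimple)

universe u v

/-! ### degrees of `X` and of `Aut X` -/

/-- the inner automorphisms, `X` nonabelian simple -/
noncomputable def innEquiv (X : Type v) [Group X] [IsSimpleGroup X] (hX : ¬ IsMulCommutative X) :
    X ≃* (MulAut.conj : X →* MulAut X).range := by
  refine MonoidHom.ofInjective ?_
  rw [injective_iff_map_eq_one]
  intro x hx
  have h1 : x ∈ Subgroup.center X := by
    rw [Subgroup.mem_center_iff]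
    intro g
    have h2 := DFunLike.congr_fun hx g
    rw [MulAut.conj_apply, MulAut.one_apply] at h2
    calc g * x = x * g * x⁻¹ * x := by rw [h2]
      _ = x * g := by group
  rcases (inferInstance : (Subgroup.center X).Normal).eq_bot_or_eq_top with h | h
  · rw [h, Subgroup.mem_bot] at h1
    exact h1
  · exfalso
    apply hX
    refine ⟨⟨fun a b => ?_⟩⟩
    have hb : b ∈ Subgroup.center X := h ▸ Subgroup.mem_top b
    exact Subgroup.mem_center_iff.1 hb a

/-- `|Aut X : Inn X| = |Out X|` -/
theorem index_conj (X : Type v) [Group X] :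
    (MulAut.conj : X →* MulAut X).range.index = Nat.card (Cfsg.Out X) := by
  rfl

theorem finite_mulAut (X : Type v) [Group X] [Finite X] : Finite (MulAut X) :=
  Finite.of_injective (fun f : MulAut X => (f : X → X)) (fun _ _ h => MulEquiv.ext fun x => congrFun h x)

/-- the degrees of `Aut X` -/
theorem deg_mulAut {X : Type v} [Group X] [Finite X] [IsSimpleGroup X] (hX : ¬ IsMulCommutative X)
    (hi : (MulAut.conj : X →* MulAut X).range.index ∣ 2) {d : ℕ} (hd : d ∈ charDegrees (MulAut X)) :
    d ∈ charDegrees X ∨ ∃ e ∈ charDegrees X, d = 2 * e := by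
  have := finite_mulAut X
  have : ((MulAut.conj : X →* MulAut X).range).Normal := by infer_instance
  obtain ⟨e, he, h1, h2⟩ := H424.DegTools.clifford_down ((MulAut.conj : X →* MulAut X).range) hd
  have he' : e ∈ charDegrees X := by
    rw [H424.DegTools.charDegrees_congr (innEquiv X hX)]
    exact he
  have h3 := Nat.mul_div_cancel' h1
  rcases (Nat.dvd_prime Nat.prime_two).1 (h2.trans hi) with h4 | h4
  · left
    rw [h4, mul_one] at h3
    rwa [← h3]
  · right
    rw [h4] at h3
    exact ⟨e, he', by omega⟩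

/-- the members of `D` -/
theorem deg_cases {c : ℕ} {X : Type v} [Group X] [Finite X] [IsSimpleGroup X] (hX : ¬ IsMulCommutative X)
    (hi : c = 2 → (MulAut.conj : X →* MulAut X).range.index ∣ 2) {D : Set ℕ} (hD : Deg c X D) {d : ℕ} (hd : d ∈ D) :
    d ∈ charDegrees X ∨ (c = 2 ∧ ∃ e ∈ charDegrees X, d = 2 * e) := by
  rcases hD with rfl | ⟨hc, rfl⟩
  · exact Or.inl hd
  · rcases deg_mulAut hX (hi hc) hd with h | h
    · exact Or.inl h
    · exact Or.inr ⟨hc, h⟩

/-- index at most two divides two -/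
theorem dvd_two_of_le {c i : ℕ} (hi : i ≤ c) (h0 : i ≠ 0) (hc : c = 2) : i ∣ 2 := by
  subst hc
  interval_cases i
  · exact absurd rfl h0
  · norm_num
  · norm_num

/-! ### the data of `X` -/

/-- order, least degree, columns, degrees excluded by hand -/
structure AD where
  N : ℕ
  m : ℕ
  cd : List CD
  ex : List ℕ

/-- the test of a candidate -/
def AD.adm (a : AD) (d : ℕ) : Bool :=
  Nat.beq d 1 || ((Nat.ble a.m d && Nat.ble (d * d + 1) a.N) && (Nat.beq (a.N % d) 0 &&
    ((a.cd.all fun c => c.wl.any fun rw => Nat.beq (d % c.r) rw.1) && !(a.ex.any fun x => Nat.beq d x))))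

/-- the test of a candidate for a member of `D` -/
def AD.inD (a : AD) (c d : ℕ) : Bool :=
  a.adm d || (Nat.beq c 2 && (Nat.beq (d % 2) 0 && a.adm (d / 2)))

/-- `e` is a degree of a simple group `S` which is not the socle of `A` with `|A : S| ∣ o` and all degrees in `D` -/
def AD.kill (a : AD) (c o e : ℕ) : Bool :=
  !(a.inD c e) && (!(Nat.beq o 2) || !(a.inD c (2 * e)))

/-- the data are right -/
structure AD.OK (a : AD) (X : Type v) [Group X] : Prop where
  simple : IsSimpleGroup X
  card : Nat.card X = a.N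
  npr : ¬ a.N.Prime
  npos : a.N ≠ 0
  cdok : (a.cd.all (CD.ok a.N)) = true
  has : ∀ d ∈ a.cd, d.Has X
  minDeg : MinDeg X a.m
  noDeg : NoDeg X a.ex

theorem charDegree_of {X : Type v} [Group X] {d : ℕ} (hd : d ∈ charDegrees X) :
    ∃ χ : IrrCharacter X, charDegree (χ : X → ℂ) = d := by
  obtain ⟨χ, h1, h2⟩ := H424.DegTools.mem_charDegrees.1 hd
  refine ⟨⟨χ, h1⟩, ?_⟩
  have h3 := Blocks.Knorr.charDegree_eq h1
  rw [h2] at h3
  exact_mod_cast h3.symm

variable {X : Type v} [Group X] {a : AD}

theorem AD.OK.finite (h : a.OK X) : Finite X := by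
  apply Nat.finite_of_card_ne_zero
  rw [h.card]
  exact h.npos

theorem AD.OK.not_comm (h : a.OK X) : ¬ IsMulCommutative X := by
  have := h.finite
  have := h.simple
  exact H133.Ore.not_comm_of (by rw [h.card]; exact h.npr)

/-- the degrees of `X` pass the test -/
theorem AD.OK.adm (h : a.OK X) {d : ℕ} (hd : d ∈ charDegrees X) : a.adm d = true := by
  have := h.finite
  have := h.simple
  obtain ⟨χ, rfl⟩ := charDegree_of hd
  by_cases h1 : (χ : X → ℂ) = 1
  · have h2 : charDegree (χ : X → ℂ) = 1 := by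
      have h3 := Blocks.Knorr.charDegree_eq χ.2
      rw [h1, Pi.one_apply, ← h1] at h3
      exact_mod_cast h3.symm
    unfold AD.adm
    rw [h2]
    rfl
  · have h2 := h.minDeg χ h1
    have h3 := H511.Ore.charDegree_dvd χ
    have h4 : charDegree (χ : X → ℂ) * charDegree (χ : X → ℂ) + 1 ≤ Nat.card X := by
      have h5 := H495.Cod.sq_lt χ h1
      rw [sq] at h5
      omega
    have h6 : (a.cd.all fun c => c.wl.any fun rw => Nat.beq (charDegree (χ : X → ℂ) % c.r) rw.1) = true := by
      rw [List.all_eq_true]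
      intro c hc
      exact H511.Ore.res_of_has h.not_comm h.card (h.has c hc) (List.all_eq_true.1 h.cdok c hc) χ
    have h7 : (a.ex.any fun x => Nat.beq (charDegree (χ : X → ℂ)) x) = false := by
      rw [Bool.eq_false_iff]
      intro h8
      obtain ⟨x, hx, h9⟩ := List.any_eq_true.1 h8
      exact h.noDeg χ (by rw [Nat.eq_of_beq_eq_true h9]; exact hx)
    rw [h.card] at h3 h4
    unfold AD.adm
    rw [h6, h7, Nat.ble_eq_true_of_le h2, Nat.ble_eq_true_of_le h4, Nat.mod_eq_zero_of_dvd h3]
    simp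

/-- the members of `D` pass the test -/
theorem AD.OK.inD (h : a.OK X) {c : ℕ} (hi : c = 2 → (MulAut.conj : X →* MulAut X).range.index ∣ 2) {D : Set ℕ}
    (hD : Deg c X D) {d : ℕ} (hd : d ∈ D) : a.inD c d = true := by
  have := h.finite
  have := h.simple
  unfold AD.inD
  rcases deg_cases h.not_comm hi hD hd with h1 | ⟨rfl, e, he, rfl⟩
  · rw [h.adm h1]; rfl
  · have h2 := h.adm he
    have h3 : 2 * e / 2 = e := by omega
    have h4 : 2 * e % 2 = 0 := by omega
    rw [h3, h4, h2]
    simp

/-- **The engine**: no almost simple group with socle `S` -/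
theorem AD.OK.kill (h : a.OK X) {c : ℕ} (hi : c = 2 → (MulAut.conj : X →* MulAut X).range.index ∣ 2) {D : Set ℕ}
    (hD : Deg c X D) {A : Type u} [Group A] [Finite A] {S : Subgroup A} (hS : S.Normal) (hsub : charDegrees A ⊆ D)
    {o : ℕ} (ho : S.index ∣ o) (ho2 : o = 1 ∨ o = 2) {e : ℕ} (he : e ∈ charDegrees S) (hk : a.kill c o e = true) :
    False := by
  obtain ⟨d, hd, h1, h2⟩ := H424.DegTools.clifford_up S he
  have h3 := h.inD hi hD (hsub hd)
  have h4 := Nat.mul_div_cancel' h1
  unfold AD.kill at hk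
  rw [Bool.and_eq_true, Bool.or_eq_true] at hk
  obtain ⟨hk1, hk2⟩ := hk
  have h5 : a.inD c e ≠ true := by
    intro h6; rw [h6] at hk1; exact absurd hk1 (by decide)
  have h6 : d / e = 1 ∨ (o = 2 ∧ d / e = 2) := by
    rcases ho2 with rfl | rfl
    · exact Or.inl (Nat.dvd_one.1 (h2.trans ho))
    · rcases (Nat.dvd_prime Nat.prime_two).1 (h2.trans ho) with h7 | h7
      · exact Or.inl h7
      · exact Or.inr ⟨rfl, h7⟩
  rcases h6 with h6 | ⟨rfl, h6⟩
  · rw [h6, mul_one] at h4
    rw [← h4] at h3
    exact h5 h3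
  · rw [h6] at h4
    have h7 : d = 2 * e := by omega
    rw [h7] at h3
    rw [h3] at hk2
    exact absurd hk2 (by decide)

/-- an explicit superset of the degrees of `X` -/
theorem AD.OK.mem_list (h : a.OK X) {L : List (ℕ × ℕ)} (hL : (L.all fun pa => Nat.Prime pa.1) = true)
    (hLN : facProd L = a.N) {E : List ℕ}
    (hE : allDiv a.N (fun d => !(a.adm d) || E.any fun e => Nat.beq d e) L 1 = true) {d : ℕ} (hd : d ∈ charDegrees X) :
    d ∈ E := by
  have := h.finite
  have hN : 1 < a.N := by
    have h1 := h.npos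
    rcases Nat.lt_or_ge 1 a.N with h2 | h2
    · exact h2
    · exfalso
      have h3 : Nat.card X = 1 := by rw [h.card]; omega
      have h4 := (Nat.card_eq_one_iff_unique.1 h3).1
      have h5 := h.simple.1
      exact not_subsingleton X h4
  have h1 := h.adm hd
  have h2 : d ∣ facProd L := by rw [hLN, ← h.card]; exact H424.DegTools.dvd_card hd
  have hL' : ∀ pa ∈ L, pa.1.Prime := fun pa hpa => of_decide_eq_true (List.all_eq_true.1 hL pa hpa)
  have h3 : d * d < a.N := by
    have h4 := h1
    unfold AD.adm at h4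
    rw [Bool.or_eq_true] at h4
    rcases h4 with h4 | h4
    · rw [Nat.eq_of_beq_eq_true h4]
      omega
    · rw [Bool.and_eq_true, Bool.and_eq_true] at h4
      have := Nat.le_of_ble_eq_true h4.1.2
      omega
  have h4 := allDiv_spec hL' hE d h2 (by rw [one_mul]; exact h3)
  rw [one_mul, h1, Bool.not_true, Bool.false_or, List.any_eq_true] at h4
  obtain ⟨x, hx, h5⟩ := h4
  rwa [Nat.eq_of_beq_eq_true h5]

/-- an explicit superset of `D` -/
theorem AD.OK.mem_list2 (h : a.OK X) {c : ℕ} (hi : c = 2 → (MulAut.conj : X →* MulAut X).range.index ∣ 2) {D : Set ℕ}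
    (hD : Deg c X D) {L : List (ℕ × ℕ)} (hL : (L.all fun pa => Nat.Prime pa.1) = true)
    (hLN : facProd L = a.N) {E : List ℕ}
    (hE : allDiv a.N (fun d => !(a.adm d) || E.any fun e => Nat.beq d e) L 1 = true) {d : ℕ} (hd : d ∈ D) :
    d ∈ E ∨ (c = 2 ∧ ∃ e ∈ E, d = 2 * e) := by
  have := h.finite
  have := h.simple
  rcases deg_cases h.not_comm hi hD hd with h1 | ⟨h0, e, he, rfl⟩
  · exact Or.inl (h.mem_list hL hLN hE h1)
  · exact Or.inr ⟨h0, e, h.mem_list hL hLN hE he, rfl⟩

/-- the least nontrivial degree -/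
theorem AD.OK.le_of_mem' (h : a.OK X) {d : ℕ} (hd : d ∈ charDegrees X) : d = 1 ∨ a.m ≤ d := by
  have h1 := h.adm hd
  unfold AD.adm at h1
  rw [Bool.or_eq_true] at h1
  rcases h1 with h1 | h1
  · exact Or.inl (Nat.eq_of_beq_eq_true h1)
  · rw [Bool.and_eq_true, Bool.and_eq_true] at h1
    exact Or.inr (Nat.le_of_ble_eq_true h1.1.1)

theorem AD.OK.le_of_mem (h : a.OK X) {c : ℕ} (hi : c = 2 → (MulAut.conj : X →* MulAut X).range.index ∣ 2) {D : Set ℕ}
    (hD : Deg c X D) {d : ℕ} (hd : d ∈ D) : d = 1 ∨ d = 2 ∨ a.m ≤ d := by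
  have := h.finite
  have := h.simple
  rcases deg_cases h.not_comm hi hD hd with h1 | ⟨-, e, he, rfl⟩
  · rcases h.le_of_mem' h1 with h2 | h2 <;> omega
  · rcases h.le_of_mem' he with h2 | h2 <;> omega

/-! ### transport along an isomorphism -/

theorem charDegree_comp {Y : Type u} [Group Y] (e : X ≃* Y) (χ : Y → ℂ) :
    charDegree (fun x : X => χ (e x)) = charDegree χ := by
  unfold charDegree
  simp

theorem card_cent_congr {Y : Type u} [Group Y] (e : X ≃* Y) (x : X) :
    Nat.card (centralizer ({e x} : Set Y)) = Nat.card (centralizer ({x} : Set X)) := by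
  have h1 : centralizer ({e x} : Set Y) = (centralizer ({x} : Set X)).map e.toMonoidHom := by
    ext y
    constructor
    · intro hy
      refine ⟨e.symm y, ?_, by simp⟩
      rw [SetLike.mem_coe, mem_centralizer_singleton_iff]
      rw [mem_centralizer_singleton_iff] at hy
      apply e.injective
      rw [map_mul, map_mul, e.apply_symm_apply]
      exact hy
    · rintro ⟨z, hz, rfl⟩
      rw [SetLike.mem_coe, mem_centralizer_singleton_iff] at hz
      rw [mem_centralizer_singleton_iff]
      show e z * e x = e x * e z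
      rw [← map_mul, hz, map_mul]
  rw [h1]
  exact (Nat.card_congr ((centralizer ({x} : Set X)).equivMapOfInjective e.toMonoidHom e.injective).toEquiv).symm

theorem has_congr {Y : Type u} [Group Y] (e : X ≃* Y) {d : CD} (h : d.Has X) : d.Has Y := by
  obtain ⟨h1, x, h2, h3⟩ := h
  exact ⟨h1, e x, by rw [← h2]; exact orderOf_injective e.toMonoidHom e.injective x, by rw [← h3, card_cent_congr]⟩

theorem irr_congr {Y : Type u} [Group Y] (e : X ≃* Y) (χ : IrrCharacter Y) :
    ∃ ψ : IrrCharacter X, (ψ : X → ℂ) = fun x => (χ : Y → ℂ) (e x) := by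
  exact ⟨⟨fun x => (χ : Y → ℂ) (e x), isIrr_comp e.toMonoidHom e.surjective χ.2⟩, rfl⟩

theorem minDeg_congr {Y : Type u} [Group Y] (e : X ≃* Y) {m : ℕ} (h : MinDeg X m) : MinDeg Y m := by
  intro χ h1
  obtain ⟨ψ, hψ⟩ := irr_congr e χ
  have h2 : (ψ : X → ℂ) ≠ 1 := by
    intro h3
    apply h1
    funext y
    have h4 := congrFun (hψ.symm.trans h3) (e.symm y)
    simpa using h4
  have h3 := h ψ h2
  rwa [hψ, charDegree_comp] at h3

theorem noDeg_congr {Y : Type u} [Group Y] (e : X ≃* Y) {ex : List ℕ} (h : NoDeg X ex) : NoDeg Y ex := by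
  intro χ
  obtain ⟨ψ, hψ⟩ := irr_congr e χ
  have h3 := h ψ
  rwa [hψ, charDegree_comp] at h3

/-- transport -/
theorem AD.OK.congr {Y : Type u} [Group Y] (h : a.OK X) (e : X ≃* Y) : a.OK Y where
  simple := by
    have := h.simple
    exact e.symm.isSimpleGroup
  card := by rw [← h.card]; exact Nat.card_congr e.symm.toEquiv
  npr := h.npr
  npos := h.npos
  cdok := h.cdok
  has := fun d hd => has_congr e (h.has d hd)
  minDeg := minDeg_congr e h.minDeg
  noDeg := noDeg_congr e h.noDeg

end Cfsg.Agent.H131.S8
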